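/- Standard subgroup `M12`: the configuration around an involution `t` of `C(L)`. -/
import Cfsg.Agent.SPOR.J4.MathOut

set_option autoImplicit false

namespace CL.TM

open Subgroup CL.MAut

/-- `M12` -/
abbrev L0 : Subgroup Pm := Cfsg.Spor.M12

/-- `Aut M12` (the stabiliser in `M24` of a pair of complementary dodecads) -/
abbrev A0 : Subgroup Pm := DuD

variable {G : Type*} [Group G]

/-- `C(t)` acts on `ι(M12)` through `π : C(t) → Aut M12`, with kernel `W × ⟨t⟩`, `W` of odd order. -/
structure Cf (t : G) (ι : L0 →* G) (W : Subgroup G) (π : G → Pm) : Prop where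
  t2 : orderOf t = 2
  tι : ∀ l, Commute (ι l) t
  tW : ∀ w ∈ W, Commute w t
  ιW : ∀ l, ∀ w ∈ W, Commute (ι l) w
  odd : Odd (Nat.card W)
  mul : ∀ a b, Commute a t → Commute b t → π (a * b) = π a * π b
  mem : ∀ a, Commute a t → π a ∈ A0
  πι : ∀ l, π (ι l) = l
  ker : ∀ a, Commute a t → (π a = 1 ↔ a ∈ W ∨ a * t ∈ W)
  act : ∀ a, Commute a t → ∀ l l' : L0, (l' : Pm) = π a * l * (π a)⁻¹ → a * ι l * a⁻¹ = ι l'

/-- `G` has no subgroup of index two, in the form used by the transfer lemmas -/
def Perf (G : Type*) [Group G] : Prop := commutator G = ⊤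

/-- the number of conjugates of `t` in `P` satisfying `p` -/
noncomputable def dc (t : G) (P : Subgroup G) (p : G → Prop) : ℕ :=
  {y | IsConj t y ∧ y ∈ P ∧ p y}.ncard

end CL.TM
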