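/- Tools for polycyclic tables. -/
import Cfsg.Agent.INV.TM.D2

set_option autoImplicit false

namespace CL.TM

open Subgroup CL.K

variable {G : Type*} [Group G] {P : PC} {g : ℕ → G}

namespace Trx0

open _root_.CL.TM.PC

theorem evk_cg {g g' : ℕ → G} {c : ℕ} : ∀ k, (∀ i < k, c.testBit i = true → g i = g' i) → evk g k c = evk g' k c
  | 0, _ => rfl
  | k + 1, h => by
    rw [evk, evk, evk_cg k fun i hi => h i (by omega)]
    cases e : c.testBit k
    exacts [rfl, by rw [h k (by omega) e]]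

theorem evk_map {H : Type*} [Group H] (f : G →* H) (g : ℕ → G) (c : ℕ) :
    ∀ k, f (evk g k c) = evk (fun i => f (g i)) k c
  | 0 => map_one f
  | k + 1 => by
    rw [evk, evk, map_mul, evk_map f g c k]
    cases c.testBit k
    exacts [by rw [TwoS.bp_false, map_one]; rfl, rfl]

theorem bit_of {m c i : ℕ} (hc : In m c) (h : c.testBit i = true) : m.testBit i = true := by
  rw [← hc, Nat.testBit_and, Bool.and_eq_true] at h
  exact h.2

theorem lt_of {c k i : ℕ} (hc : c < 2 ^ k) (h : c.testBit i = true) : i < k :=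
  (Nat.pow_lt_pow_iff_right one_lt_two).1 ((Nat.ge_two_pow_of_testBit h).trans_lt hc)

theorem th_ev (h : P.Md g) {k c : ℕ} (hk : k < P.n) (hc : c < 2 ^ k) :
    g k * evk g k c = evk g k (P.th k c) * g k := by
  by_cases c0 : c = 0
  · rw [c0, ((ok_spec h.ok).1 k hk).2.1, evk_zero, one_mul, mul_one]
  have l := th_lt h.ok hk hc
  have := evk_mk h.ok h.rel (k + 1) hk (2 ^ k) (Nat.pow_lt_pow_right one_lt_two k.lt_succ_self) c
    (hc.trans (Nat.pow_lt_pow_right one_lt_two k.lt_succ_self))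
  rw [mk_succ, if_neg c0, if_pos le_rfl, if_neg hc.not_ge, Nat.sub_self,
    evk_hi g (mk_lt h.ok k hk.le _ (Nat.two_pow_pos k) _ l), evk_mk h.ok h.rel k hk.le _ (Nat.two_pow_pos k) _ l,
    evk_lo g hc, ← add_zero (2 ^ k), evk_hi g (Nat.two_pow_pos k), evk_zero, one_mul, one_mul] at this
  exact this.symm

/-- the values of `par m` at the generators -/
def wm (m j : ℕ) : Multiplicative (ZMod 2) := .ofAdd (bit m j : ℕ)

theorem ev_cnt (m x : ℕ) : ∀ k, evk (wm m) k x = .ofAdd ((cnt k (x &&& m) : ℕ) : ZMod 2)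
  | 0 => rfl
  | k + 1 => by
    rw [evk, ev_cnt m x k, cnt_eq_sum (k + 1), Finset.sum_range_succ, ← cnt_eq_sum, Nat.cast_add, ofAdd_add, wm,
      bit_eq, bit_eq, Nat.testBit_and]
    cases x.testBit k <;> simp

theorem par_eq (m x : ℕ) : par m x = cnt 24 (x &&& m) % 2 := by
  rw [← Nat.and_one_is_mod, ← pc24_eq]; rfl

theorem ev_par (hn : P.n ≤ 13) (m : ℕ) {x : ℕ} (hx : x < 2 ^ P.n) :
    P.ev (wm m) x = .ofAdd ((par m x : ℕ) : ZMod 2) := by
  rw [ev, ← evk_lt _ hx 24 (by omega), ev_cnt, par_eq, ZMod.natCast_mod]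

theorem ev_eq (hn : P.n ≤ 13) (m : ℕ) {x y : ℕ} (hx : x < 2 ^ P.n) (hy : y < 2 ^ P.n) :
    P.ev (wm m) x = P.ev (wm m) y ↔ par m x = par m y := by
  rw [ev_par hn m hx, ev_par hn m hy, Equiv.apply_eq_iff_eq, ZMod.natCast_eq_natCast_iff', par_eq, par_eq,
    Nat.mod_mod, Nat.mod_mod]

theorem ev_one (hn : P.n ≤ 13) (m : ℕ) {x : ℕ} (hx : x < 2 ^ P.n) : P.ev (wm m) x = 1 ↔ par m x = 0 := by
  rw [← P.ev_zero (wm m), ev_eq hn m hx (Nat.two_pow_pos _), par_eq m 0, Nat.zero_and]; rfl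

theorem homb_iff (ok : P.ok = true) (hn : P.n ≤ 13) (m : ℕ) : P.homb m = true ↔ P.Rel (wm m) := by
  simp only [homb, allLt_iff, Bool.and_eq_true, Nat.beq_eq, Nat.pow_eq]
  refine forall₂_congr fun k hk => ?_
  have l : 2 ^ k < 2 ^ P.n := Nat.pow_lt_pow_right one_lt_two hk
  refine and_congr ?_ (forall₂_congr fun j hj => ?_)
  · rw [← ev_one hn m (((ok_spec ok).1 k hk).1.trans l), (by decide : ∀ a : Multiplicative (ZMod 2), a * a = 1),
      eq_comm]
  · have l' : 2 ^ j < 2 ^ k := Nat.pow_lt_pow_right one_lt_two hj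
    rw [← ev_eq hn m ((th_lt ok hk l').trans l) (l'.trans l), P.ev_gen _ (hj.trans hk), mul_comm, mul_left_inj,
      eq_comm]

theorem count (h : P.Md g) (i : P.Inj g) (p : G → Prop) [DecidablePred p] :
    ∑ x ∈ Finset.range (2 ^ P.n), (if p (P.ev g x) then 1 else 0) = {v | v ∈ h.sub ∧ p v}.ncard := by
  rw [← Finset.card_filter, ← Set.ncard_coe_finset, ← Set.InjOn.ncard_image (f := P.ev g) fun x hx y hy =>
    i x (Finset.mem_range.1 (Finset.mem_filter.1 hx).1) y (Finset.mem_range.1 (Finset.mem_filter.1 hy).1)]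
  refine congrArg _ (Set.ext fun v => ⟨?_, ?_⟩)
  · rintro ⟨x, hx, rfl⟩
    exact ⟨h.ev_mem (Finset.mem_range.1 (Finset.mem_filter.1 hx).1), (Finset.mem_filter.1 hx).2⟩
  · rintro ⟨⟨x, hx, rfl⟩, hp⟩
    exact ⟨x, Finset.mem_coe.2 (Finset.mem_filter.2 ⟨Finset.mem_range.2 hx, hp⟩), rfl⟩

end Trx0

open Trx0

theorem E_zero (g : ℕ → G) : E g 0 = 1 := PC.evk_zero g 13

theorem E_gen (g : ℕ → G) {j : ℕ} (hj : j < 13) : E g (2 ^ j) = g j := PC.ev_gen ⟨13, 0, 0, 0⟩ g hj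

theorem E_congr {g g' : ℕ → G} {k c : ℕ} (h : ∀ i < k, g i = g' i) (hc : c < 2 ^ k) : E g c = E g' c := evk_cg 13 fun i _ e => h i (lt_of hc e)

/-- a subgroup containing the generators of a mask -/
theorem E_mem {m c : ℕ} {K : Subgroup G} (h : ∀ i < 13, m.testBit i = true → g i ∈ K) (hc : In m c) :
    E g c ∈ K := by
  have : ∀ k ≤ 13, PC.evk g k c ∈ K := fun k hk => by
    induction k with
    | zero => exact K.one_mem
    | succ k ih =>
      refine K.mul_mem (ih (by omega)) ?_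
      cases e : c.testBit k
      exacts [K.one_mem, h k hk (bit_of hc e)]
  exact this 13 le_rfl

namespace PC.Md

variable (h : P.Md g)
include h

theorem mulE (hn : P.n ≤ 13) {x y : ℕ} (hx : x < 2 ^ P.n) (hy : y < 2 ^ P.n) :
    E g (P.mul x y) = E g x * E g y := by
  rw [E_eq g hn (mul_lt h.ok hx hy), E_eq g hn hx, E_eq g hn hy, h.mul hx hy]

theorem cjE (hn : P.n ≤ 13) {x y : ℕ} (hx : x < 2 ^ P.n) (hy : y < 2 ^ P.n) :
    E g (P.cj x y) = E g x * E g y * (E g x)⁻¹ := by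
  rw [E_eq g hn (cj_lt h.ok hx hy), E_eq g hn hx, E_eq g hn hy, h.cj hx hy]

theorem ivE (hn : P.n ≤ 13) {x : ℕ} (hx : x < 2 ^ P.n) : E g (P.iv x) = (E g x)⁻¹ := by
  rw [E_eq g hn (iv_lt h.ok hx), E_eq g hn hx, h.iv hx]

/-- PROOF. If `evk g (k+1) x = evk g (k+1) y` with different top bits then `g k = evk g k v` for some `v < 2 ^ k`
(the `evk g k v` form a subgroup: `evk_mk`, finiteness or `mk_inj`), so `v c = (th k c) v`, against `stepb`. -/
theorem inj_step {k c : ℕ} (hk : k < P.n) (h4 : 4 ≤ k) (hs : P.stepb k c = true)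
    (hi : ∀ x < 2 ^ k, ∀ y < 2 ^ k, evk g k x = evk g k y → x = y) :
    ∀ x < 2 ^ (k + 1), ∀ y < 2 ^ (k + 1), evk g (k + 1) x = evk g (k + 1) y → x = y := by
  simp only [stepb, Bool.and_eq_true, Nat.blt_eq, force_eq, allLt2_iff, Nat.pow_eq, Bool.not_eq_true',
    ← Bool.not_eq_true, Nat.beq_eq] at hs
  rw [show 16 = 2 ^ 4 from rfl, ← pow_add, Nat.sub_add_cancel h4] at hs
  have lt := mk_lt h.ok k hk.le
  have mu := evk_mk h.ok h.rel k hk.le
  have no : ∀ x < 2 ^ k, ∀ y < 2 ^ k, evk g k x * g k ≠ evk g k y := fun x hx y hy e => by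
    obtain ⟨w, hw⟩ := (Finite.injective_iff_surjective (f := fun w : Fin (2 ^ k) =>
      (⟨_, lt w w.2 x hx⟩ : Fin (2 ^ k)))).1
      (fun a b e => Fin.ext (mk_inj h.ok k hk.le _ a.2 _ b.2 x hx (congrArg Fin.val e))) ⟨0, Nat.two_pow_pos k⟩
    have v := lt _ w.2 y hy
    have gv : evk g k (P.mk' k w y) = g k := by
      rw [mu _ w.2 y hy, ← e, ← mul_assoc, ← mu _ w.2 x hx, show P.mk' k w x = 0 from congrArg Fin.val hw,
        evk_zero, one_mul]
    have d := th_lt h.ok hk hs.1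
    exact hs.2 _ v (hi _ (lt _ v _ hs.1) _ (lt _ d _ v) (by rw [mu _ v _ hs.1, mu _ d _ v, gv, th_ev h hk hs.1]))
  have sp : ∀ x < 2 ^ (k + 1), x < 2 ^ k ∨ ∃ x' < 2 ^ k, x = 2 ^ k + x' := fun x hx =>
    (lt_or_ge x _).imp_right fun l => ⟨x - 2 ^ k, by rw [pow_succ] at hx; omega, by omega⟩
  intro x hx y hy e
  rcases sp x hx with a | ⟨x, a, rfl⟩ <;> rcases sp y hy with b | ⟨y, b, rfl⟩
  · exact hi x a y b (by rwa [evk_lo g a, evk_lo g b] at e)
  · exact absurd (by rwa [evk_lo g a, evk_hi g b, eq_comm] at e) (no y b x a)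
  · exact absurd (by rwa [evk_hi g a, evk_lo g b] at e) (no x a y b)
  · rw [hi x a y b (by rwa [evk_hi g a, evk_hi g b, mul_left_inj] at e)]

/-- the value of `hm` -/
theorem hmE (hn : P.n ≤ 13) {im : List ℕ} {k : ℕ} (hk : k ≤ 13) (him : ∀ i < k, lget im i < 2 ^ P.n) {c : ℕ}
    (hc : c < 2 ^ k) : P.hm im k c < 2 ^ P.n ∧ E g (P.hm im k c) = E (fun i => E g (lget im i)) c := by
  rw [show E (fun i => E g (lget im i)) c = _ from evk_lt _ hc 13 hk]
  clear hc
  induction k with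
  | zero => exact ⟨Nat.two_pow_pos _, evk_zero g 13⟩
  | succ k ih =>
    obtain ⟨a, b⟩ := ih (by omega) fun i hi => him i (by omega)
    have e : P.hm im (k + 1) c = Bool.rec (motive := fun _ => ℕ) (P.mul (P.hm im k c) (lget im k)) (P.hm im k c)
      (Nat.beq (bit c k) 0) :=
      force_eq (P.hm im k c) fun a => Bool.rec (motive := fun _ => ℕ) (P.mul a (lget im k)) a (Nat.beq (bit c k) 0)
    rw [e, evk, bit_eq, ← b]
    cases c.testBit k
    · exact ⟨a, (mul_one _).symm⟩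
    · exact ⟨mul_lt h.ok a (him k (by omega)), h.mulE hn a (him k (by omega))⟩

/-- the action of `r` on all codes of a mask from its action on the generators -/
theorem acts (hn : P.n ≤ 13) {r : G} {m : ℕ} {im : List ℕ} {k : ℕ} (hk : k ≤ 13)
    (him : ∀ i < k, lget im i < 2 ^ P.n)
    (ha : ∀ i < k, m.testBit i = true → r * g i * r⁻¹ = E g (lget im i)) {c : ℕ} (hc : c < 2 ^ k) (hm : In m c) :
    r * E g c * r⁻¹ = E g (P.hm im k c) := by
  rw [(h.hmE hn hk him hc).2]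
  exact (evk_map (MulAut.conj r).toMonoidHom g c 13).trans
    (evk_cg 13 fun i _ e => ha i (lt_of hc e) (bit_of hm e))

/-- `par m` as a homomorphism (`lift` to `Multiplicative (ZMod 2)`) -/
theorem hom (i : P.Inj g) (hn : P.n ≤ 13) {m : ℕ} (hm : P.homb m = true) :
    ∃ φ : h.sub →* Multiplicative (ZMod 2), ∀ x (hx : x < 2 ^ P.n),
      φ ⟨_, h.ev_mem hx⟩ = 1 ↔ par m x = 0 := by
  obtain ⟨φ, hφ⟩ := h.lift i ((homb_iff h.ok hn m).1 hm)
  exact ⟨φ, fun x hx => by rw [hφ x hx, ev_one hn m hx]⟩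

/-- every homomorphism to `ZMod 2` comes from a mask (bit `j` of `m` is the value at `g j`) -/
theorem mask (i : P.Inj g) (hn : P.n ≤ 13) (φ : h.sub →* Multiplicative (ZMod 2)) :
    ∃ m < 2 ^ P.n, P.homb m = true ∧ ∀ x (hx : x < 2 ^ P.n), φ ⟨_, h.ev_mem hx⟩ = 1 ↔ par m x = 0 := by
  classical
  let g' : ℕ → h.sub := fun j => if hj : j < P.n then ⟨_, h.ev_mem (Nat.pow_lt_pow_right one_lt_two hj)⟩ else 1
  let m := Nat.ofBits fun j : Fin P.n => decide (φ (g' j) ≠ 1)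
  have k : ∀ x (hx : x < 2 ^ P.n), φ ⟨_, h.ev_mem hx⟩ = P.ev (wm m) x := fun x hx => by
    rw [show (⟨_, h.ev_mem hx⟩ : h.sub) = evk g' P.n x from Subtype.ext ((evk_map h.sub.subtype g' x _).trans
      (evk_cg _ fun j hj _ => by simp only [g', dif_pos hj, subtype_apply, P.ev_gen g hj])).symm, evk_map]
    refine evk_cg _ fun j hj _ => ?_
    rw [wm, bit_eq, Nat.testBit_ofBits_lt _ _ hj]
    generalize φ (g' j) = a
    revert a
    decide
  refine ⟨m, Nat.ofBits_lt_two_pow _, (homb_iff h.ok hn m).2 fun j hj => ?_,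
    fun x hx => by rw [k x hx, ev_one hn m hx]⟩
  have l : 2 ^ j < 2 ^ P.n := Nat.pow_lt_pow_right one_lt_two hj
  refine ⟨?_, fun j' hj' => ?_⟩
  · rw [← P.ev_gen (wm m) hj, ← k _ l, ← k _ (((ok_spec h.ok).1 j hj).1.trans l), ← map_mul]
    exact congrArg φ (Subtype.ext (by simpa only [coe_mul, P.ev_gen g hj] using (h.rel j hj).1))
  · have l' : 2 ^ j' < 2 ^ j := Nat.pow_lt_pow_right one_lt_two hj'
    rw [← P.ev_gen (wm m) hj, ← P.ev_gen (wm m) (hj'.trans hj), ← k _ l, ← k _ (l'.trans l),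
      ← k _ ((th_lt h.ok hj l').trans l), ← map_mul, ← map_mul]
    exact congrArg φ (Subtype.ext (by
      simpa only [coe_mul, P.ev_gen g hj, P.ev_gen g (hj'.trans hj)] using (h.rel j hj).2 j' hj'))

/-- the three fields of `cnt` (each at most `2 ^ 13 < 2 ^ 16`) -/
theorem cnt_eq (i : P.Inj g) (h4 : 4 ≤ P.n) (hn : P.n ≤ 13) {r : ℕ} (hr : r < 2 ^ P.n) :
    lk (P.cnt r) 0 = Nat.card ↥(h.sub ⊓ centralizer {P.ev g r}) ∧
    lk (P.cnt r) 1 = {v | v ∈ h.sub ⊓ centralizer {P.ev g r} ∧ v * v = 1}.ncard ∧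
    lk (P.cnt r) 2 = {v | v ∈ h.sub ⊓ centralizer {P.ev g r} ∧ v ^ 4 = 1}.ncard := by
  classical
  have a := count h i fun v => v ∈ centralizer {P.ev g r}
  have b := count h i fun v => v ∈ centralizer {P.ev g r} ∧ v * v = 1
  have c := count h i fun v => v ∈ centralizer {P.ev g r} ∧ v ^ 4 = 1
  have bd : ∀ p : G → Prop, {v | v ∈ h.sub ∧ p v}.ncard ≤ 2 ^ 13 := fun p => by
    rw [← count h i, ← Finset.card_filter]
    exact ((Finset.card_filter_le _ _).trans_eq (Finset.card_range _)).trans (Nat.pow_le_pow_right two_pos hn)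
  have e : P.cnt r = ∑ x ∈ Finset.range (2 ^ P.n), (if P.ev g x ∈ centralizer {P.ev g r} then 1 else 0) +
      2 ^ 16 * ∑ x ∈ Finset.range (2 ^ P.n),
        (if P.ev g x ∈ centralizer {P.ev g r} ∧ P.ev g x * P.ev g x = 1 then 1 else 0) +
      2 ^ 32 * ∑ x ∈ Finset.range (2 ^ P.n),
        (if P.ev g x ∈ centralizer {P.ev g r} ∧ P.ev g x ^ 4 = 1 then 1 else 0) := by
    rw [PC.cnt, sumLt2_eq, Nat.pow_eq, show 16 = 2 ^ 4 from rfl, ← pow_add, Nat.sub_add_cancel h4, Finset.mul_sum,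
      Finset.mul_sum, ← Finset.sum_add_distrib, ← Finset.sum_add_distrib]
    refine Finset.sum_congr rfl fun x hx => ?_
    have hx := Finset.mem_range.1 hx
    have s := mul_lt h.ok hx hx
    have e2 : ∀ a b : ℕ, Nat.beq a b = decide (a = b) := fun a b => by
      rw [Bool.eq_iff_iff, Nat.beq_eq, decide_eq_true_eq]
    simp only [force_eq, e2, ← h.comm i hr hx, ← h.eq_one i s, ← h.eq_one i (mul_lt h.ok s s), h.mul s s,
      h.mul hx hx, mem_centralizer_singleton_iff, commute_iff_eq, eq_comm (a := P.ev g r * _),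
      show ∀ v : G, v ^ 4 = v * v * (v * v) from fun v => by simp only [pow_succ, pow_zero, one_mul, mul_assoc]]
    by_cases p : P.ev g x * P.ev g r = P.ev g r * P.ev g x <;> by_cases q : P.ev g x * P.ev g x = 1 <;>
      by_cases u : P.ev g x * P.ev g x * (P.ev g x * P.ev g x) = 1 <;> simp [p, q, u]
  have l : ∀ T j, lk T j = T / 2 ^ (16 * j) % 2 ^ 16 := fun T j => by
    rw [← Nat.shiftRight_eq_div_pow, ← Nat.and_two_pow_sub_one_eq_mod]; rfl
  have a' := bd fun v => v ∈ centralizer {P.ev g r}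
  have b' := bd fun v => v ∈ centralizer {P.ev g r} ∧ v * v = 1
  have c' := bd fun v => v ∈ centralizer {P.ev g r} ∧ v ^ 4 = 1
  rw [l, l, l, e, a, b, c, show Nat.card ↥(h.sub ⊓ centralizer {P.ev g r}) =
    {v | v ∈ h.sub ∧ v ∈ centralizer {P.ev g r}}.ncard from rfl]
  simp only [mem_inf, and_assoc]
  omega

end PC.Md

/-- extending a model by one generator: the first `P.n` levels of the tables agree -/
theorem PC.md_ext {P' : PC} (h : P.Md g) (ok : P'.ok = true) (hn : P'.n = P.n + 1) (h13 : P'.n ≤ 13)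
    (ht : ∀ k < P.n, P'.sq k = P.sq k ∧ ∀ j < k, P'.th k (2 ^ j) = P.th k (2 ^ j)) {r : G}
    (hs : r * r = E g (P'.sq P.n)) (hc : ∀ j < P.n, r * g j * r⁻¹ = E g (P'.th P.n (2 ^ j))) :
    P'.Md (Function.update g P.n r) := by
  have e : ∀ x < 2 ^ P.n, P'.ev (Function.update g P.n r) x = E g x := fun x hx =>
    (E_eq (P := P') _ h13 (hx.trans_le (Nat.pow_le_pow_right two_pos (by omega)))).symm.trans
      (E_congr (fun i hi => Function.update_of_ne hi.ne _ _) hx)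
  have u : ∀ j < P.n, Function.update g P.n r j = g j := fun j hj => Function.update_of_ne hj.ne _ _
  refine ⟨ok, fun k hk => ?_⟩
  have l : 2 ^ k ≤ 2 ^ P.n := Nat.pow_le_pow_right two_pos (by omega)
  have s := ((PC.ok_spec ok).1 k hk).1.trans_le l
  have t := fun j (hj : j < k) => (PC.th_lt ok hk (Nat.pow_lt_pow_right one_lt_two hj)).trans_le l
  rw [e _ s]
  rcases (show k < P.n ∨ k = P.n by omega) with a | rfl
  · refine ⟨?_, fun j hj => ?_⟩
    · rw [u k a, E_eq g (by omega) s, (ht k a).1, (h.rel k a).1]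
    · rw [e _ (t j hj), u k a, u j (by omega), E_eq g (by omega) (t j hj), (ht k a).2 j hj, (h.rel k a).2 j hj]
  · rw [Function.update_self]
    exact ⟨hs, fun j hj => by rw [e _ (t j hj), u j hj, ← hc j hj, inv_mul_cancel_right]⟩

/-- restriction of a model to the first generators -/
theorem PC.md_res {P' : PC} (h : P'.Md g) (ok : P.ok = true) (hn : P.n ≤ P'.n)
    (ht : ∀ k < P.n, P'.sq k = P.sq k ∧ ∀ j < k, P'.th k (2 ^ j) = P.th k (2 ^ j)) :
    P.Md g ∧ (P'.Inj g → P.Inj g) := by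
  have e : ∀ x < 2 ^ P.n, P'.ev g x = P.ev g x := fun x hx => P'.ev_lt g hx hn
  have n := Nat.pow_le_pow_right two_pos hn
  refine ⟨⟨ok, fun k hk => ?_⟩, fun i x hx y hy f => i x (hx.trans_le n) y (hy.trans_le n) (by rw [e x hx, e y hy, f])⟩
  have l : 2 ^ k < 2 ^ P.n := Nat.pow_lt_pow_right one_lt_two hk
  refine ⟨?_, fun j hj => ?_⟩
  · rw [← e _ (((PC.ok_spec ok).1 k hk).1.trans l), ← (ht k hk).1, (h.rel k (by omega)).1]
  · rw [← e _ ((PC.th_lt ok hk (Nat.pow_lt_pow_right one_lt_two hj)).trans l), ← (ht k hk).2 j hj,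
      (h.rel k (by omega)).2 j hj]

end CL.TM
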