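/- Facts on involutions and elements of order four of `Aut M12`. -/
import Cfsg.Agent.INV.TM.Def
import Cfsg.Agent.INV.TM.ZD
import Cfsg.Agent.SOLV.ProductsHall

set_option autoImplicit false

namespace CL.TM.ZF

open Subgroup CL.MAut Cfsg CL.K CL.Enc CL.Golay CL.Wd CL.TM.ZD
open scoped Pointwise

/-- `⟨q, y⟩` is an image of `A₄`, `w` inverts `y`, and all three commute with `l` -/
structure Tri {H : Type*} [Group H] (l q y w : H) : Prop where
  cq : Commute q l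
  cy : Commute y l
  cw : Commute w l
  q2 : q * q = 1
  y3 : y ^ 3 = 1
  qy : (q * y) ^ 3 = 1
  wy : y * w * y = w

theorem Tri.map {H H' F : Type*} [Group H] [Group H'] [FunLike F H H'] [MonoidHomClass F H H'] (φ : F)
    {l q y w : H} (h : Tri l q y w) : Tri (φ l) (φ q) (φ y) (φ w) :=
  ⟨h.cq.map φ, h.cy.map φ, h.cw.map φ, by rw [← map_mul, h.q2, map_one], by rw [← map_pow, h.y3, map_one],
    by rw [← map_mul, ← map_pow, h.qy, map_one], by rw [← map_mul, ← map_mul, h.wy]⟩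

theorem L0_le : L0 ≤ A0 := memh12.1

theorem cjA {g x : Pm} (hg : g ∈ A0) (hx : x ∈ A0) : g * x * g⁻¹ ∈ A0 := mul_mem (mul_mem hg hx) (inv_mem hg)

theorem cjL {g x : Pm} (hg : g ∈ A0) : g * x * g⁻¹ ∈ L0 ↔ x ∈ L0 :=
  ⟨fun h => by simpa [mul_assoc] using norm12 _ (inv_mem hg) _ h, norm12 g hg x⟩

theorem mul_out {a b : Pm} (ha : a ∈ A0) (hb : b ∈ A0) (h1 : a ∉ L0) (h2 : b ∉ L0) : a * b ∈ L0 := by
  rw [L0, CL.M12.M12_eq, CL.M12.mem_St] at *
  obtain ⟨a1, a2⟩ := CL.M12.mem_Du.1 ha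
  obtain ⟨b1, b2⟩ := CL.M12.mem_Du.1 hb
  refine ⟨mul_mem a1 b1, ?_⟩
  rw [SemigroupAction.mul_smul, b2.resolve_left fun e => h2 ⟨b1, e⟩, smul_finset_compl', a2.resolve_left fun e => h1 ⟨a1, e⟩,
    compl_compl]

theorem sq_mem {a : Pm} (ha : a ∈ A0) : a * a ∈ L0 := by
  by_cases h : a ∈ L0
  exacts [mul_mem h h, mul_out ha ha h h]

noncomputable def cm (P Q : ℕ) : Bool := Nat.beq (comp24 P Q) (comp24 Q P)
noncomputable def sq1 (P : ℕ) : Bool := Nat.beq (comp24 P P) one24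
noncomputable def cb1 (P : ℕ) : Bool := Nat.beq (pow24 P 3) one24
noncomputable def okA (P : ℕ) : Bool := okM P && th12 P
noncomputable def okL (P : ℕ) : Bool := okM P && t12 P

variable {g h : Pm} {P Q : ℕ}

theorem cm_iff (hg : R g P) (hh : R h Q) : cm P Q = true ↔ Commute g h := by
  rw [cm, Nat.beq_eq, hg.comp24_eq_iff hh hh hg]; rfl

theorem sq1_iff (hg : R g P) : sq1 P = true ↔ g * g = 1 := by rw [sq1, Nat.beq_eq, hg.comp24_eq_one_iff hg]

theorem cb1_iff (hg : R g P) : cb1 P = true ↔ g ^ 3 = 1 := by rw [cb1, Nat.beq_eq, hg.pow_succ_eq_one_iff 2]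

theorem inA (h : okA P = true) : I A0 P :=
  memh12.2 P (I.of_okM (Bool.and_eq_true_iff.1 h).1) (Bool.and_eq_true_iff.1 h).2

theorem inL (h : okL P = true) : I L0 P :=
  in12 (I.of_okM (Bool.and_eq_true_iff.1 h).1) (Bool.and_eq_true_iff.1 h).2

theorem t12_iff (hg : g ∈ A0) (hP : R g P) : t12 P = true ↔ g ∈ L0 := by
  refine ⟨fun h => ?_, fun h => mem12.2 g P h hP⟩
  obtain ⟨k, hk, hr⟩ := in12 ⟨g, hg.1, hP⟩ h
  exact R.eq_of hr hP rfl ▸ hk

theorem lvlA : Lv A0 lvA [] :=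
  Lv.ofM (p := th12) memh12.2 (by decide +kernel) ((CL.M12.card_Du D0_mem).trans_le (by decide +kernel))

/-- the list contains the centraliser -/
def Cov (l : Pm) (C : List ℕ) : Prop := ∀ g ∈ A0, Commute g l → ∃ P ∈ C, R g P

theorem cov_of {C : List ℕ} (hg : R g P)
    (h : allP24 (PC.cConj 5 31 P P) (fun Q => !cm Q P || lmem Q C) lvA [] one24 = true) : Cov g C := by
  intro k hk c
  obtain ⟨Q, hQ, e⟩ := lvlA.all1 (Snd.cConj hg hg) h k hk (by simp) c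
  rw [(cm_iff hQ hg).2 c] at e
  exact ⟨Q, lmem_iff.1 (by simpa using e), hQ⟩

theorem zL : I L0 cz := inL (by decide +kernel)
theorem aL : I L0 ca := inL (by decide +kernel)
theorem fA : I A0 cf := inA (by decide +kernel)
theorem fL : pm cf ∉ L0 := fun h => absurd (mem12.2 _ _ h (rp fA)) (by decide +kernel)

theorem covZ : Cov (pm cz) CZ := cov_of (rp zL) (by decide +kernel)
theorem covA : Cov (pm ca) CA := cov_of (rp aL) (by decide +kernel)

theorem index_z : ((centralizer {pm cz}).subgroupOf A0).index = 495 := by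
  have h1 := lvlA.count1 (Snd.cConj (rp zL) (rp zL)) (qConj_spec (rp zL) (rp zL))
  rw [show sumP24 (PC.cConj 5 31 cz cz) (qConj cz cz) lvA [] one24 = 384 by decide +kernel] at h1
  have h2 : Nat.card ((centralizer {pm cz}).subgroupOf A0) = 384 := by
    rw [← inf_subgroupOf_right, Nat.card_congr (subgroupOfEquivOfLe inf_le_right).toEquiv, ← h1,
      ← Nat.card_coe_set_eq]
    exact Nat.card_congr (Equiv.subtypeEquivRight fun x => by
      simp [mem_centralizer_singleton_iff, and_comm])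
  have h3 := ((centralizer {pm cz}).subgroupOf A0).card_mul_index
  rw [h2, CL.M12.card_Du D0_mem] at h3
  omega

theorem classes {x : Pm} (hx : x ∈ A0) (h2 : x * x = 1) (h1 : x ≠ 1) :
    ∃ g ∈ A0, g * x * g⁻¹ = pm cz ∨ g * x * g⁻¹ = pm ca ∨ g * x * g⁻¹ = pm cf := by
  obtain ⟨g, hg⟩ := exists_conj_le_of_not_dvd_index (p := 2) (P := zpowers (⟨x, hx⟩ : A0))
    (H := (centralizer {pm cz}).subgroupOf A0)
    (IsPGroup.of_card (n := 1) (by
      rw [Nat.card_zpowers, pow_one]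
      exact orderOf_eq_prime (Subtype.ext (by simpa [pow_two] using h2)) fun e => h1 (congrArg Subtype.val e)))
    (by rw [index_z]; norm_num)
  have h3 : (g : Pm) * x * (g : Pm)⁻¹ ∈ centralizer {pm cz} :=
    hg (smul_mem_pointwise_smul _ (MulAut.conj g) _ (mem_zpowers _))
  obtain ⟨P, hP, hr⟩ := covZ _ (cjA g.2 hx) (mem_centralizer_singleton_iff.1 h3)
  have k : (lall okA N1 && lall (fun P => !sq1 P || Nat.beq P one24 ||
    lany (fun n => lmem (conj24 n P) [cz, ca, cf]) N1) CZ) = true := by decide +kernel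
  rw [Bool.and_eq_true, lall_iff, lall_iff] at k
  have k2 := k.2 P hP
  rw [(sq1_iff hr).2 (by rw [conj_mul, h2]; simp)] at k2
  simp only [Bool.not_true, Bool.false_or, Bool.or_eq_true, lany_iff, lmem_iff, Nat.beq_eq] at k2
  rcases k2 with e | ⟨n, hn, e⟩
  · exact absurd (conj_eq_one_iff.1 (R.eq_of hr R.one e)) h1
  have hn' := inA (k.1 n hn)
  refine ⟨pm n * g, mul_mem hn'.permOf_mem g.2, ?_⟩
  rw [show pm n * g * x * (pm n * g)⁻¹ = pm n * (g * x * (g : Pm)⁻¹) * (pm n)⁻¹ by group]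
  simp only [List.mem_cons, List.not_mem_nil, or_false] at e
  exact e.imp (R.eq_conj (rp hn') hr (rp zL)) (Or.imp (R.eq_conj (rp hn') hr (rp aL)) (R.eq_conj (rp hn') hr (rp fA)))

theorem classesL {x : Pm} (hx : x ∈ L0) (h2 : x * x = 1) (h1 : x ≠ 1) :
    ∃ g ∈ A0, g * x * g⁻¹ = pm cz ∨ g * x * g⁻¹ = pm ca := by
  obtain ⟨g, hg, h⟩ := classes (L0_le hx) h2 h1
  exact ⟨g, hg, h.imp_right fun h => h.resolve_right fun e => fL (e ▸ (cjL hg).2 hx)⟩

theorem tri_of {l q y w : ℕ} (hl : R g l) (h : (okL q && okL y && okL w && cm q l && cm y l && cm w l && sq1 q &&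
    cb1 y && cb1 (comp24 q y) && Nat.beq (comp24 (comp24 y w) y) w && !Nat.beq (comp24 q one24) one24 &&
    !Nat.beq (comp24 q l) one24) = true) :
    ∃ q ∈ L0, ∃ y ∈ L0, ∃ w ∈ L0, Tri g q y w ∧ q ≠ 1 ∧ q * g ≠ 1 := by
  simp only [Bool.and_eq_true, Bool.not_eq_true', ← Bool.not_eq_true, Nat.beq_eq] at h
  obtain ⟨⟨⟨⟨⟨⟨⟨⟨⟨⟨⟨h1, h2⟩, h3⟩, h4⟩, h5⟩, h6⟩, h7⟩, h8⟩, h9⟩, h10⟩, h11⟩, h12⟩ := h
  have rq := rp (inL h1)
  have ry := rp (inL h2)
  have rw' := rp (inL h3)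
  exact ⟨_, (inL h1).permOf_mem, _, (inL h2).permOf_mem, _, (inL h3).permOf_mem,
    ⟨(cm_iff rq hl).1 h4, (cm_iff ry hl).1 h5, (cm_iff rw' hl).1 h6, (sq1_iff rq).1 h7, (cb1_iff ry).1 h8,
      (cb1_iff (rq.mul ry)).1 h9, R.eq_of ((ry.mul rw').mul ry) rw' h10⟩,
    fun e => h11 ((rq.comp24_eq_one_iff R.one).2 ((mul_one _).trans e)),
    fun e => h12 ((rq.comp24_eq_one_iff hl).2 e)⟩

theorem four_of {l x : ℕ} (hl : R g l) (h : (okL x && cm x l && sq1 (comp24 x x) && !sq1 x &&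
    !Nat.beq (comp24 x x) (comp24 l one24)) = true) :
    ∃ x ∈ L0, Commute x g ∧ x * x * (x * x) = 1 ∧ x * x ≠ 1 ∧ x * x ≠ g := by
  simp only [Bool.and_eq_true, Bool.not_eq_true', ← Bool.not_eq_true, Nat.beq_eq] at h
  obtain ⟨⟨⟨⟨h1, h2⟩, h3⟩, h4⟩, h5⟩ := h
  have rx := rp (inL h1)
  exact ⟨_, (inL h1).permOf_mem, (cm_iff rx hl).1 h2, (sq1_iff (rx.mul rx)).1 h3, fun e => h4 ((sq1_iff rx).2 e),
    fun e => h5 ((rx.comp24_eq_iff rx hl R.one).2 (by rw [e, mul_one]))⟩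

/-- the centraliser of an element of order four -/
def O4 (s : Pm) : Prop :=
  (∀ f ∈ A0, Commute f s → f * f = 1 → f ∈ L0) ∧ ∀ q ∈ A0, ∀ y ∈ A0, ∀ w ∈ A0, Tri s q y w → q = 1

theorem O4.of_conj {s : Pm} (hg : g ∈ A0) (h : O4 (g * s * g⁻¹)) : O4 s :=
  ⟨fun f hf c e => (cjL hg).1 (h.1 _ (cjA hg hf) (c.map (MulAut.conj g)) (by rw [conj_mul, e]; simp)),
    fun _ hq _ hy _ hw t => conj_eq_one_iff.1 (h.2 _ (cjA hg hq) _ (cjA hg hy) _ (cjA hg hw) (t.map (MulAut.conj g)))⟩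

noncomputable def chk4 (l : ℕ) (C : List ℕ) : Bool :=
  lall (fun s => !Nat.beq (comp24 s s) (comp24 l one24) || forceL (lfilter (cm s) C) fun D =>
    lall (fun f => !sq1 f || t12 f) D && lall (fun y => !cb1 y || lall (fun q => !sq1 q || Nat.beq q one24 ||
      !cb1 (comp24 q y) || lall (fun w => !Nat.beq (comp24 (comp24 y w) y) (comp24 w one24)) D) D) D) C

theorem o4_of {C : List ℕ} (hg : R g P) (hC : Cov g C) (h : chk4 P C = true) {s : Pm} (hs : s ∈ A0)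
    (e : s * s = g) : O4 s := by
  obtain ⟨S, hS, rs⟩ := hC s hs (e ▸ (Commute.refl s).mul_right (.refl s))
  have k := lall_iff.1 h S hS
  rw [Nat.beq_eq.mpr ((rs.comp24_eq_iff rs hg R.one).2 (by rw [e, mul_one])), forceL_eq, lfilter_eq] at k
  simp only [Bool.not_true, Bool.false_or, Bool.and_eq_true, lall_iff] at k
  have m : ∀ x ∈ A0, Commute x s → ∃ X ∈ C.filter (cm S), R x X := fun x hx c => by
    obtain ⟨X, hX, rx⟩ := hC x hx (e ▸ c.mul_right c)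
    exact ⟨X, List.mem_filter.2 ⟨hX, (cm_iff rs rx).2 c.symm⟩, rx⟩
  refine ⟨fun f hf c e => ?_, fun q hq y hy w hw t => ?_⟩
  · obtain ⟨X, hX, rx⟩ := m f hf c
    have := k.1 X hX
    rw [(sq1_iff rx).2 e] at this
    exact (t12_iff hf rx).1 (by simpa using this)
  · obtain ⟨Q, hQ, rq⟩ := m q hq t.cq
    obtain ⟨Y, hY, ry⟩ := m y hy t.cy
    obtain ⟨W, hW, rw'⟩ := m w hw t.cw
    have k1 := k.2 Y hY
    rw [(cb1_iff ry).2 t.y3, Bool.not_true, Bool.false_or, lall_iff] at k1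
    have k2 := k1 Q hQ
    rw [(sq1_iff rq).2 t.q2, (cb1_iff (rq.mul ry)).2 t.qy] at k2
    simp only [Bool.not_true, Bool.false_or, Bool.or_false, Bool.or_eq_true, lall_iff] at k2
    rcases k2 with k2 | k2
    · exact R.eq_of rq R.one (Nat.eq_of_beq_eq_true k2)
    · have := k2 W hW
      rw [Nat.beq_eq.mpr (((ry.mul rw').comp24_eq_iff ry rw' R.one).2 (by rw [t.wy, mul_one]))] at this
      simp at this

/-- the centralisers of `l` and `x` generate -/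
def Gn (l x : Pm) : Prop := ∀ H : Subgroup Pm, (∀ c ∈ L0, Commute c l ∨ Commute c x → c ∈ H) → L0 ≤ H

theorem Gn.of_conj {l x : Pm} (hg : g ∈ A0) (h : Gn (g * l * g⁻¹) (g * x * g⁻¹)) : Gn l x := fun H hH c hc => by
  have := h (H.comap (MulAut.conj g⁻¹).toMonoidHom) (fun c hc k => hH _ ((cjL (inv_mem hg)).2 hc)
    (k.imp (fun k => by simpa [mul_assoc] using k.map (MulAut.conj g⁻¹))
      fun k => by simpa [mul_assoc] using k.map (MulAut.conj g⁻¹))) ((cjL hg).2 hc)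
  simpa [mul_assoc] using this

noncomputable def chkG (l c : ℕ) (C N : List ℕ) (D : List (ℕ × List (List ℕ))) : Bool :=
  okL c && cm c l && lall (fun n => okL n && cm n l) N &&
  lall (fun d => okL d.1 && lall (wOK 2) d.2 && lall (fun P => lmem P (lmap (ev24 [c, d.1]) d.2)) ga12) D &&
  lall (fun x => !t12 x || !sq1 x || Nat.beq x one24 || Nat.beq x l ||
    lany (fun n => force (conj24 n x) fun x' => lany (fun d => cm d.1 x') D) N) C

theorem gn_of {c : ℕ} {C N : List ℕ} {D : List (ℕ × List (List ℕ))} (hg : R g P) (hC : Cov g C)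
    (h : chkG P c C N D = true) {x : Pm} (hx : x ∈ L0) (h2 : x * x = 1) (h1 : x ≠ 1) (h3 : x ≠ g)
    (hc : Commute x g) : Gn g x := fun H hH => by
  simp only [chkG, Bool.and_eq_true, lall_iff, force_eq] at h
  obtain ⟨⟨⟨⟨c1, c2⟩, hN⟩, hD⟩, k⟩ := h
  obtain ⟨X, hX, rx⟩ := hC x (L0_le hx) hc
  have k1 := k X hX
  rw [mem12.2 _ _ hx rx, (sq1_iff rx).2 h2] at k1
  simp only [Bool.not_true, Bool.false_or, Bool.or_eq_true, lany_iff, Nat.beq_eq] at k1
  rcases k1 with (e | e) | ⟨n, hn, d, hd, e⟩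
  · exact absurd (R.eq_of rx R.one e) h1
  · exact absurd (R.eq_of rx hg e) h3
  obtain ⟨⟨d1, d2⟩, d3⟩ := hD d hd
  have nL := inL (hN n hn).1
  have nH := hH _ nL.permOf_mem (.inl ((cm_iff (rp nL) hg).1 (hN n hn).2))
  have dL := inL d1
  have dH : pm d.1 ∈ H := by
    have := hH _ ((cjL (inv_mem (L0_le nL.permOf_mem))).2 dL.permOf_mem) (.inr (by
      simpa [mul_assoc] using ((cm_iff (rp dL) ((rp nL).conj rx)).1 e).map (MulAut.conj (pm n)⁻¹)))
    rwa [mul_mem_cancel_right (inv_mem (inv_mem nH)), mul_mem_cancel_left (inv_mem nH)] at this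
  have cL := inL c1
  have cH := hH _ cL.permOf_mem (.inl ((cm_iff (rp cL) hg).1 c2))
  rw [L0, ga12_eq]
  refine Enc.gen_le fun Q hQ => ?_
  have := lmem_iff.1 (d3 Q hQ)
  rw [lmap_eq] at this
  obtain ⟨w, hw, rfl⟩ := List.mem_map.1 this
  refine ⟨evG (fun i => pm (lget [c, d.1] i)) w, evG_mem (fun i hi => ?_) (d2 w hw), R.ev (fun i hi => ?_) (d2 w hw)⟩
  · interval_cases i
    exacts [cH, dH]
  · interval_cases i
    exacts [rp cL, rp dL]

/-- all outer involutions are conjugate under `M12` -/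
theorem out_conj {f f' : Pm} (hf : f ∈ A0) (hf' : f' ∈ A0) (h1 : f ∉ L0) (h1' : f' ∉ L0) (h2 : f * f = 1)
    (h2' : f' * f' = 1) : ∃ c ∈ L0, c * f * c⁻¹ = f' := by
  have k : ∀ {f : Pm}, f ∈ A0 → f ∉ L0 → f * f = 1 → ∃ c ∈ L0, c * f * c⁻¹ = pm cf := fun {f} hf h1 h2 => by
    obtain ⟨g, hg, h⟩ := classes hf h2 fun e => h1 (e ▸ one_mem _)
    have e : g * f * g⁻¹ = pm cf := (h.resolve_left fun e => h1 ((cjL hg).1 (e ▸ zL.permOf_mem))).resolve_left
      fun e => h1 ((cjL hg).1 (e ▸ aL.permOf_mem))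
    by_cases gL : g ∈ L0
    · exact ⟨g, gL, e⟩
    · exact ⟨g * f, mul_out hg hf gL h1, by rw [← e]; group⟩
  obtain ⟨c, hc, e⟩ := k hf h1 h2
  obtain ⟨c', hc', e'⟩ := k hf' h1' h2'
  refine ⟨c'⁻¹ * c, mul_mem (inv_mem hc') hc, ?_⟩
  calc _ = c'⁻¹ * (c * f * c⁻¹) * c' := by group
    _ = f' := by rw [e, ← e']; group

theorem exists_tri {l : Pm} (hl : l ∈ A0) (h2 : l * l = 1) (h1 : l ≠ 1) :
    ∃ q ∈ L0, ∃ y ∈ L0, ∃ w ∈ L0, Tri l q y w ∧ q ≠ 1 ∧ q * l ≠ 1 := by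
  obtain ⟨g, hg, h⟩ := classes hl h2 h1
  obtain ⟨q, hq, y, hy, w, hw, t, k1, k2⟩ : ∃ q ∈ L0, ∃ y ∈ L0, ∃ w ∈ L0,
      Tri (g * l * g⁻¹) q y w ∧ q ≠ 1 ∧ q * (g * l * g⁻¹) ≠ 1 := by
    rcases h with e | e | e <;> rw [e]
    · exact tri_of (q := lget triz 0) (y := lget triz 1) (w := lget triz 2) (rp zL) (by decide +kernel)
    · exact tri_of (q := lget tria 0) (y := lget tria 1) (w := lget tria 2) (rp aL) (by decide +kernel)
    · exact tri_of (q := lget trif 0) (y := lget trif 1) (w := lget trif 2) (rp fA) (by decide +kernel)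
  have hg' := inv_mem hg
  refine ⟨_, (cjL hg').2 hq, _, (cjL hg').2 hy, _, (cjL hg').2 hw, ?_, fun e => k1 (conj_eq_one_iff.1 e),
    fun e => k2 ?_⟩
  · simpa [mul_assoc] using t.map (MulAut.conj g⁻¹)
  · calc _ = g * (g⁻¹ * q * g⁻¹⁻¹ * l) * g⁻¹ := by group
      _ = 1 := by rw [e]; group

theorem exists_four {l : Pm} (hl : l ∈ L0) (h2 : l * l = 1) (h1 : l ≠ 1) :
    ∃ x ∈ L0, Commute x l ∧ x * x * (x * x) = 1 ∧ x * x ≠ 1 ∧ x * x ≠ l := by
  obtain ⟨g, hg, h⟩ := classesL hl h2 h1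
  obtain ⟨x, hx, c, k1, k2, k3⟩ : ∃ x ∈ L0, Commute x (g * l * g⁻¹) ∧ x * x * (x * x) = 1 ∧ x * x ≠ 1 ∧
      x * x ≠ g * l * g⁻¹ := by
    rcases h with e | e <;> rw [e]
    · exact four_of (x := xz) (rp zL) (by decide +kernel)
    · exact four_of (x := xa) (rp aL) (by decide +kernel)
  refine ⟨_, (cjL (inv_mem hg)).2 hx, by simpa [mul_assoc] using c.map (MulAut.conj g⁻¹), ?_, ?_, fun e => k3 ?_⟩
  · rw [conj_mul, conj_mul, k1]; simp
  · rw [conj_mul]; exact fun e => k2 (conj_eq_one_iff.1 e)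
  · rw [← e]; group

theorem ord_four {s : Pm} (hs : s ∈ A0) (h4 : s * s * (s * s) = 1) (h2 : s * s ≠ 1) :
    (∀ f ∈ A0, Commute f s → f * f = 1 → f ∈ L0) ∧ ∀ q ∈ A0, ∀ y ∈ A0, ∀ w ∈ A0, Tri s q y w → q = 1 := by
  obtain ⟨g, hg, h⟩ := classesL (sq_mem hs) h4 h2
  rw [← conj_mul] at h
  refine O4.of_conj hg (h.elim (o4_of (rp zL) covZ ?_ (cjA hg hs)) (o4_of (rp aL) covA ?_ (cjA hg hs)))
  · decide +kernel
  · decide +kernel

theorem gen_two {l x : Pm} (hl : l ∈ L0) (hx : x ∈ L0) (l2 : l * l = 1) (x2 : x * x = 1) (l1 : l ≠ 1) (x1 : x ≠ 1)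
    (hne : x ≠ l) (hc : Commute x l) {H : Subgroup Pm} (hH : ∀ c ∈ L0, Commute c l ∨ Commute c x → c ∈ H) :
    L0 ≤ H := by
  obtain ⟨g, hg, h⟩ := classesL hl l2 l1
  have k1 := (cjL hg).2 hx
  have k2 : g * x * g⁻¹ * (g * x * g⁻¹) = 1 := by rw [conj_mul, x2]; simp
  have k3 : g * x * g⁻¹ ≠ 1 := fun e => x1 (conj_eq_one_iff.1 e)
  have k4 : g * x * g⁻¹ ≠ g * l * g⁻¹ := fun e => hne (by simpa using e)
  have k5 : Commute (g * x * g⁻¹) (g * l * g⁻¹) := hc.map (MulAut.conj g)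
  refine Gn.of_conj hg ?_ H hH
  rcases h with e | e <;> rw [e] at k4 k5 ⊢
  · exact gn_of (c := gz) (N := Nz) (D := Dz) (rp zL) covZ (by decide +kernel) k1 k2 k3 k4 k5
  · exact gn_of (c := ga) (N := Na) (D := Da) (rp aL) covA (by decide +kernel) k1 k2 k3 k4 k5

end CL.TM.ZF
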